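import Cfsg.Agent.H843.IMC.AltK

/-!
# The Schur functor `S_(2,2)` (helper599, piece [PI] of (M,23), S4929)

* `isCharacter_s22` : for a character `χ` the function `g ↦ (χ(g)^4 + 3 χ(g^2)^2 - 4 χ(g) χ(g^3)) / 12` is a
  character.
-/

set_option autoImplicit false
set_option linter.unusedSectionVars false

namespace Cfsg.Agent.H599.M23

open Cfsg Cfsg.Agent.Characters.Core Cfsg.Agent.H843.IMC
open scoped BigOperators

/-- The coefficients of the projection: `24` times the difference of the projections on the invariants of the dihedral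
group `{0,1 | 2,3}` and of the symmetric group. -/
def cf (σ : Equiv.Perm (Fin 4)) : ℤ := if (σ 0).val / 2 = (σ 1).val / 2 then 2 else -1

theorem cf_conv : ∀ ρ : Equiv.Perm (Fin 4), ∑ σ : Equiv.Perm (Fin 4), cf σ * cf (σ⁻¹ * ρ) = 24 * cf ρ := by
  decide +kernel

/-- a representative of the conjugacy class -/
def rp (k : Fin 5) : Equiv.Perm (Fin 4) :=
  match k with
  | 0 => 1
  | 1 => Equiv.swap 0 1
  | 2 => Equiv.swap 0 1 * Equiv.swap 2 3
  | 3 => Equiv.swap 0 1 * Equiv.swap 1 2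
  | 4 => Equiv.swap 0 1 * Equiv.swap 1 2 * Equiv.swap 2 3

theorem exists_conj : ∀ σ : Equiv.Perm (Fin 4), ∃ k : Fin 5, ∃ τ : Equiv.Perm (Fin 4), σ = τ * rp k * τ⁻¹ := by
  decide +kernel

section

variable {I : Type*} [Fintype I] [DecidableEq I]

/-- the projection -/
noncomputable def pr : Matrix (Fin 4 → I) (Fin 4 → I) ℂ :=
  (24 : ℂ)⁻¹ • ∑ σ : Equiv.Perm (Fin 4), ((cf σ : ℤ) : ℂ) • pm 4 σ

theorem pr_mul_pr : (pr : Matrix (Fin 4 → I) (Fin 4 → I) ℂ) * pr = pr := by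
  have h1 : (∑ σ : Equiv.Perm (Fin 4), ((cf σ : ℤ) : ℂ) • (pm 4 σ : Matrix (Fin 4 → I) (Fin 4 → I) ℂ)) *
      (∑ σ : Equiv.Perm (Fin 4), ((cf σ : ℤ) : ℂ) • pm 4 σ) =
      (24 : ℂ) • ∑ σ : Equiv.Perm (Fin 4), ((cf σ : ℤ) : ℂ) • pm 4 σ := by
    rw [Finset.sum_mul]
    have h2 : ∀ σ : Equiv.Perm (Fin 4), ((cf σ : ℤ) : ℂ) • (pm 4 σ : Matrix (Fin 4 → I) (Fin 4 → I) ℂ) *
        (∑ τ : Equiv.Perm (Fin 4), ((cf τ : ℤ) : ℂ) • pm 4 τ) =
        ∑ ρ : Equiv.Perm (Fin 4), ((cf σ * cf (σ⁻¹ * ρ) : ℤ) : ℂ) • pm 4 ρ := by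
      intro σ
      rw [Finset.mul_sum, ← Equiv.sum_comp (Equiv.mulLeft σ)
        (fun ρ => ((cf σ * cf (σ⁻¹ * ρ) : ℤ) : ℂ) • (pm 4 ρ : Matrix (Fin 4 → I) (Fin 4 → I) ℂ))]
      refine Finset.sum_congr rfl fun τ _ => ?_
      rw [smul_mul_smul_comm, pm_mul]
      simp only [Equiv.coe_mulLeft, inv_mul_cancel_left, Int.cast_mul]
    rw [Finset.sum_congr rfl fun σ _ => h2 σ, Finset.sum_comm, Finset.smul_sum]
    refine Finset.sum_congr rfl fun ρ _ => ?_
    rw [← Finset.sum_smul, smul_smul]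
    congr 1
    have := cf_conv ρ
    calc ∑ σ : Equiv.Perm (Fin 4), ((cf σ * cf (σ⁻¹ * ρ) : ℤ) : ℂ)
        = ((∑ σ : Equiv.Perm (Fin 4), cf σ * cf (σ⁻¹ * ρ) : ℤ) : ℂ) := by push_cast; rfl
      _ = 24 * (cf ρ : ℂ) := by rw [this]; push_cast; rfl
  unfold pr
  rw [smul_mul_smul_comm, h1, smul_smul]
  congr 1
  norm_num

theorem pr_tpow (A : Matrix I I ℂ) : pr * tpow 4 A = tpow 4 A * pr := by
  unfold pr
  rw [smul_mul_assoc, mul_smul_comm, Finset.sum_mul, Finset.mul_sum]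
  congr 1
  refine Finset.sum_congr rfl fun σ _ => ?_
  rw [smul_mul_assoc, mul_smul_comm, pm_tpow]

/-- the trace of the tensor power times a permutation -/
noncomputable def tt (A : Matrix I I ℂ) (σ : Equiv.Perm (Fin 4)) : ℂ := ∑ i : Fin 4 → I, ∏ t, A (i (σ t)) (i t)

theorem trace_pm (A : Matrix I I ℂ) (σ : Equiv.Perm (Fin 4)) : Matrix.trace (tpow 4 A * pm 4 σ) = tt A σ := by
  rw [Matrix.trace_mul_comm, Matrix.trace]
  refine Finset.sum_congr rfl fun i _ => ?_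
  rw [Matrix.diag_apply, Matrix.mul_apply, Finset.sum_eq_single (i ∘ σ)]
  · rw [pm_self, one_mul, tpow_apply]
    rfl
  · intro l _ hl
    rw [pm_ne 4 σ hl, zero_mul]
  · intro h
    exact absurd (Finset.mem_univ _) h

theorem trace_pr (A : Matrix I I ℂ) : Matrix.trace (tpow 4 A * pr) =
    (24 : ℂ)⁻¹ * ∑ σ : Equiv.Perm (Fin 4), ((cf σ : ℤ) : ℂ) * tt A σ := by
  unfold pr
  rw [mul_smul_comm, Matrix.trace_smul, smul_eq_mul, Finset.mul_sum, Matrix.trace_sum]
  congr 1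
  refine Finset.sum_congr rfl fun σ _ => ?_
  rw [mul_smul_comm, Matrix.trace_smul, smul_eq_mul, trace_pm]

theorem tt_conj (A : Matrix I I ℂ) (σ τ : Equiv.Perm (Fin 4)) : tt A (τ * σ * τ⁻¹) = tt A σ := by
  unfold tt
  rw [← Equiv.sum_comp (Equiv.arrowCongr τ (Equiv.refl I))]
  refine Finset.sum_congr rfl fun i _ => ?_
  rw [← Equiv.prod_comp τ]
  refine Finset.prod_congr rfl fun t _ => ?_
  simp [Equiv.arrowCongr]

theorem sum_four (f : (Fin 4 → I) → ℂ) : ∑ i : Fin 4 → I, f i = ∑ a, ∑ b, ∑ c, ∑ d, f ![a, b, c, d] := by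
  rw [← (Fin.consEquiv (fun _ : Fin 4 => I)).sum_comp, Fintype.sum_prod_type]
  refine Finset.sum_congr rfl fun a _ => ?_
  rw [← (Fin.consEquiv (fun _ : Fin 3 => I)).sum_comp, Fintype.sum_prod_type]
  refine Finset.sum_congr rfl fun b _ => ?_
  rw [← (Fin.consEquiv (fun _ : Fin 2 => I)).sum_comp, Fintype.sum_prod_type]
  refine Finset.sum_congr rfl fun c _ => ?_
  rw [← (Fin.consEquiv (fun _ : Fin 1 => I)).sum_comp, Fintype.sum_prod_type]
  refine Finset.sum_congr rfl fun d _ => ?_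
  rw [Fintype.sum_unique]
  congr 1

theorem tt_zero (A : Matrix I I ℂ) : tt A (rp 0) = A.trace ^ 4 := by
  unfold tt
  rw [sum_four]
  simp only [rp, Fin.prod_univ_four, Matrix.trace, Matrix.diag_apply]
  simp only [Equiv.Perm.coe_one, id, Matrix.cons_val_zero, Matrix.cons_val_one, Matrix.cons_val]
  simp only [← Finset.mul_sum, ← Finset.sum_mul]
  ring

theorem tt_one (A : Matrix I I ℂ) : tt A (rp 1) = (A * A).trace * A.trace ^ 2 := by
  unfold tt
  rw [sum_four]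
  have h0 : rp 1 0 = 1 := by decide
  have h1 : rp 1 1 = 0 := by decide
  have h2 : rp 1 2 = 2 := by decide
  have h3 : rp 1 3 = 3 := by decide
  simp only [Fin.prod_univ_four, h0, h1, h2, h3, Matrix.trace, Matrix.diag_apply, Matrix.mul_apply]
  simp only [Matrix.cons_val_zero, Matrix.cons_val_one, Matrix.cons_val]
  simp only [← Finset.mul_sum, ← Finset.sum_mul]
  rw [Finset.sum_comm]
  ring

theorem tt_two (A : Matrix I I ℂ) : tt A (rp 2) = (A * A).trace ^ 2 := by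
  unfold tt
  rw [sum_four]
  have h0 : rp 2 0 = 1 := by decide
  have h1 : rp 2 1 = 0 := by decide
  have h2 : rp 2 2 = 3 := by decide
  have h3 : rp 2 3 = 2 := by decide
  simp only [Fin.prod_univ_four, h0, h1, h2, h3, Matrix.trace, Matrix.diag_apply, Matrix.mul_apply]
  simp only [Matrix.cons_val_zero, Matrix.cons_val_one, Matrix.cons_val]
  have e : ∀ a b c d : I, A b a * A a b * A d c * A c d = (A a b * A b a) * (A c d * A d c) := by
    intros; ring
  simp only [e]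
  simp only [← Finset.mul_sum, ← Finset.sum_mul]
  ring

theorem tt_three (A : Matrix I I ℂ) : tt A (rp 3) = (A * A * A).trace * A.trace := by
  unfold tt
  rw [sum_four]
  have h0 : rp 3 0 = 1 := by decide
  have h1 : rp 3 1 = 2 := by decide
  have h2 : rp 3 2 = 0 := by decide
  have h3 : rp 3 3 = 3 := by decide
  simp only [Fin.prod_univ_four, h0, h1, h2, h3, Matrix.trace, Matrix.diag_apply, Matrix.mul_apply]
  simp only [Matrix.cons_val_zero, Matrix.cons_val_one, Matrix.cons_val]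
  simp only [← Finset.mul_sum, ← Finset.sum_mul]
  congr 1
  refine Finset.sum_congr rfl fun a _ => Finset.sum_congr rfl fun b _ => ?_
  rw [Finset.sum_mul]
  exact Finset.sum_congr rfl fun c _ => by ring

theorem tt_four (A : Matrix I I ℂ) : tt A (rp 4) = (A * A * A * A).trace := by
  unfold tt
  rw [sum_four]
  have h0 : rp 4 0 = 1 := by decide
  have h1 : rp 4 1 = 2 := by decide
  have h2 : rp 4 2 = 3 := by decide
  have h3 : rp 4 3 = 0 := by decide
  simp only [Fin.prod_univ_four, h0, h1, h2, h3, Matrix.trace, Matrix.diag_apply, Matrix.mul_apply]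
  simp only [Matrix.cons_val_zero, Matrix.cons_val_one, Matrix.cons_val]
  refine Finset.sum_congr rfl fun a _ => Finset.sum_congr rfl fun b _ => ?_
  rw [Finset.sum_mul]
  refine Finset.sum_congr rfl fun c _ => ?_
  rw [Finset.sum_mul, Finset.sum_mul]
  exact Finset.sum_congr rfl fun d _ => by ring

/-- the type of a permutation -/
def ty (σ : Equiv.Perm (Fin 4)) : Fin 5 :=
  if σ = 1 then 0 else if σ * σ = 1 then (if σ 0 = 0 ∨ σ 1 = 1 ∨ σ 2 = 2 then 1 else 2)
  else if σ * σ * σ = 1 then 3 else 4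

theorem ty_conj : ∀ σ : Equiv.Perm (Fin 4), ∃ τ : Equiv.Perm (Fin 4), σ = τ * rp (ty σ) * τ⁻¹ := by
  decide +kernel

theorem ty_sum : ∀ k : Fin 5, ∑ σ ∈ (Finset.univ : Finset (Equiv.Perm (Fin 4))).filter (fun σ => ty σ = k), cf σ =
    match k with
    | 0 => 2
    | 1 => 0
    | 2 => 6
    | 3 => -8
    | 4 => 0 := by
  decide +kernel

theorem tt_ty (A : Matrix I I ℂ) (σ : Equiv.Perm (Fin 4)) : tt A σ = tt A (rp (ty σ)) := by
  obtain ⟨τ, h⟩ := ty_conj σ
  conv_lhs => rw [h]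
  rw [tt_conj]

theorem sum_tt (A : Matrix I I ℂ) : ∑ σ : Equiv.Perm (Fin 4), ((cf σ : ℤ) : ℂ) * tt A σ =
    2 * A.trace ^ 4 + 6 * (A * A).trace ^ 2 - 8 * (A.trace * (A * A * A).trace) := by
  rw [← Finset.sum_fiberwise Finset.univ ty]
  have h : ∀ k : Fin 5, ∑ σ ∈ (Finset.univ : Finset (Equiv.Perm (Fin 4))).filter (fun σ => ty σ = k),
      ((cf σ : ℤ) : ℂ) * tt A σ =
      ((∑ σ ∈ (Finset.univ : Finset (Equiv.Perm (Fin 4))).filter (fun σ => ty σ = k), cf σ : ℤ) : ℂ) * tt A (rp k) := by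
    intro k
    rw [Int.cast_sum, Finset.sum_mul]
    refine Finset.sum_congr rfl fun σ hσ => ?_
    rw [tt_ty, (Finset.mem_filter.1 hσ).2]
  rw [Finset.sum_congr rfl fun k _ => h k, Fin.sum_univ_five]
  rw [ty_sum 0, ty_sum 1, ty_sum 2, ty_sum 3, ty_sum 4, tt_zero, tt_two, tt_three]
  push_cast
  ring

end

variable {G : Type*} [Group G]

/-- The Schur functor `S_(2,2)` of a character. -/
noncomputable def s22 (χ : G → ℂ) : G → ℂ := fun g => (χ g ^ 4 + 3 * χ (g ^ 2) ^ 2 - 4 * (χ g * χ (g ^ 3))) / 12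

/-- **`S_(2,2)` of a matrix representation.** -/
theorem isCharacter_mat {I : Type*} [Fintype I] [DecidableEq I] (A : G →* Matrix I I ℂ) :
    IsCharacter G (s22 fun g => (A g).trace) := by
  let ρ : Representation ℂ G ((Fin 4 → I) → ℂ) :=
    { toFun := fun g => Matrix.toLin' (tpow 4 (A g))
      map_one' := by
        rw [map_one, tpow_one, Matrix.toLin'_one]
        rfl
      map_mul' := fun g h => by
        rw [map_mul, tpow_mul, Matrix.toLin'_mul]
        rfl }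
  have h := isCharacter_trace_proj ρ (Matrix.toLin' pr) (by
      rw [Module.End.mul_eq_comp, ← Matrix.toLin'_mul, pr_mul_pr]) (fun g => by
      show Matrix.toLin' pr * Matrix.toLin' (tpow 4 (A g)) = Matrix.toLin' (tpow 4 (A g)) * Matrix.toLin' pr
      rw [Module.End.mul_eq_comp, Module.End.mul_eq_comp, ← Matrix.toLin'_mul, ← Matrix.toLin'_mul, pr_tpow])
  have h2 : (fun g => LinearMap.trace ℂ ((Fin 4 → I) → ℂ) (ρ g * Matrix.toLin' pr)) =
      s22 fun g => (A g).trace := by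
    funext g
    show LinearMap.trace ℂ _ (Matrix.toLin' (tpow 4 (A g)) * Matrix.toLin' pr) = _
    rw [Module.End.mul_eq_comp, ← Matrix.toLin'_mul, Matrix.trace_toLin'_eq, trace_pr, sum_tt]
    show _ = ((A g).trace ^ 4 + 3 * (A (g ^ 2)).trace ^ 2 - 4 * ((A g).trace * (A (g ^ 3)).trace)) / 12
    rw [map_pow, map_pow, pow_two (A g), pow_succ (A g) 2, pow_two (A g)]
    ring
  rw [← h2]
  exact h

/-- **`S_(2,2)` of a character is a character.** -/
theorem isCharacter_s22 {χ : G → ℂ} (hχ : IsCharacter G χ) : IsCharacter G (s22 χ) := by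
  obtain ⟨n, ρ, rfl⟩ := hχ
  have h := isCharacter_mat (((LinearMap.toMatrixAlgEquiv' (R := ℂ) (n := Fin n)).toMonoidHom).comp ρ)
  have h2 : (fun g => ((((LinearMap.toMatrixAlgEquiv' (R := ℂ) (n := Fin n)).toMonoidHom).comp ρ) g).trace) =
      ρ.character := by
    funext g
    show Matrix.trace (LinearMap.toMatrix' (ρ g)) = LinearMap.trace ℂ _ (ρ g)
    rw [LinearMap.trace_eq_matrix_trace ℂ (Pi.basisFun ℂ (Fin n)), LinearMap.toMatrix_eq_toMatrix']
  rw [h2] at h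
  exact h

theorem s22_apply (χ : G → ℂ) (g : G) :
    s22 χ g = (χ g ^ 4 + 3 * χ (g ^ 2) ^ 2 - 4 * (χ g * χ (g ^ 3))) / 12 := rfl

/-- the degree -/
theorem s22_one (χ : G → ℂ) : s22 χ 1 = χ 1 ^ 2 * (χ 1 ^ 2 - 1) / 12 := by
  rw [s22_apply, one_pow, one_pow]
  ring

/-- the degree for `χ(1) = 196883` -/
theorem s22_one_M {χ : G → ℂ} (h : χ 1 = 196883) : s22 χ 1 = 125213636056146619086 := by
  rw [s22_one, h]
  norm_num

end Cfsg.Agent.H599.M23
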